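import Cfsg.Agent.Lib.ZStar.GenQuat
import Cfsg.Agent.Lib.UniqueOrderP
import Cfsg.Agent.Lib.Core
import Mathlib.GroupTheory.Commutator.Basic

/-!
The centraliser of the derived subgroup of a generalized quaternion Sylow subgroup.
-/

namespace CfsgLib.ZStar

open Cfsg
open scoped commutatorElement

universe u

variable {G : Type u} [Group G] [Finite G]

theorem qinv_a {N : ℕ} (i : ZMod (2 * N)) :
    (QuaternionGroup.a i : QuaternionGroup N)⁻¹ = QuaternionGroup.a (-i) := rfl

theorem qinv_xa {N : ℕ} (i : ZMod (2 * N)) :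
    (QuaternionGroup.xa i : QuaternionGroup N)⁻¹ = QuaternionGroup.xa ((N : ZMod (2 * N)) + i) := rfl

/-- Centralisers of non-central elements of quaternion groups are cyclic. -/
theorem quaternion_centralizer_cyclic {N : ℕ} [NeZero N] (w : QuaternionGroup N) (hw : w * w ≠ 1) :
    ∃ g : QuaternionGroup N, ∀ q, w * q = q * w → q ∈ Subgroup.zpowers g := by
  cases w with
  | a i =>
    refine ⟨QuaternionGroup.a 1, fun q hq => ?_⟩
    cases q with
    | a j =>
      refine ⟨(j.val : ℤ), ?_⟩
      simp only [zpow_natCast, QuaternionGroup.a_one_pow, ZMod.natCast_zmod_val]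
    | xa j =>
      exfalso
      apply hw
      rw [QuaternionGroup.a_mul_xa, QuaternionGroup.xa_mul_a, QuaternionGroup.xa.injEq] at hq
      rw [QuaternionGroup.a_mul_a, QuaternionGroup.one_def, QuaternionGroup.a.injEq]
      linear_combination -hq
  | xa i =>
    refine ⟨QuaternionGroup.xa i, fun q hq => ?_⟩
    haveI : NeZero (2 * N) := ⟨Nat.mul_ne_zero two_ne_zero (NeZero.ne N)⟩
    have hhalf : ∀ j : ZMod (2 * N), j + j = 0 → j = 0 ∨ j = (N : ZMod (2 * N)) := by
      intro j hj
      have h := UniqueOrderP.quaternion_eq_of_sq (QuaternionGroup.a j) (by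
        rw [pow_two, QuaternionGroup.a_mul_a, hj, QuaternionGroup.one_def])
      rcases h with h | h
      · left; rwa [QuaternionGroup.one_def, QuaternionGroup.a.injEq] at h
      · right; rwa [QuaternionGroup.a.injEq] at h
    have hsq : QuaternionGroup.xa i * QuaternionGroup.xa i =
        (QuaternionGroup.a (N : ZMod (2 * N)) : QuaternionGroup N) := by
      rw [QuaternionGroup.xa_mul_xa]; congr 1; ring
    have haN : QuaternionGroup.a (N : ZMod (2 * N)) ∈
        Subgroup.zpowers (QuaternionGroup.xa i : QuaternionGroup N) :=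
      hsq ▸ mul_mem (Subgroup.mem_zpowers _) (Subgroup.mem_zpowers _)
    cases q with
    | a j =>
      rw [QuaternionGroup.xa_mul_a, QuaternionGroup.a_mul_xa, QuaternionGroup.xa.injEq] at hq
      rcases hhalf j (by linear_combination hq) with h | h <;> rw [h]
      · exact QuaternionGroup.one_def (n := N) ▸ one_mem _
      · exact haN
    | xa j =>
      rw [QuaternionGroup.xa_mul_xa, QuaternionGroup.xa_mul_xa, QuaternionGroup.a.injEq] at hq
      rcases hhalf (j - i) (by linear_combination hq) with h | h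
      · rw [sub_eq_zero.mp h]; exact Subgroup.mem_zpowers _
      · have : (QuaternionGroup.xa j : QuaternionGroup N) =
            QuaternionGroup.xa i * QuaternionGroup.a (N : ZMod (2 * N)) := by
          rw [QuaternionGroup.xa_mul_a, ← h, add_sub_cancel]
        rw [this]; exact mul_mem (Subgroup.mem_zpowers _) haN

/-- Subgroups of a finite cyclic group are determined by their orders. -/
theorem cyclic_subgroup_eq {A : Type*} [Group A] [Finite A] [IsCyclic A] {H K : Subgroup A}
    (h : Nat.card H = Nat.card K) : H = K := by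
  classical
  haveI := Fintype.ofFinite A
  have key : ∀ L : Subgroup A, Nat.card L = Nat.card H →
      Finset.univ.filter (· ∈ L) = Finset.univ.filter (fun a : A => a ^ Nat.card H = 1) := by
    intro L hL
    refine Finset.eq_of_subset_of_card_le (fun a ha => ?_) ?_
    · simp only [Finset.mem_filter, Finset.mem_univ, true_and] at ha ⊢
      rw [← hL]
      exact orderOf_dvd_iff_pow_eq_one.mp (by
        rw [← Subgroup.orderOf_mk a ha]; exact orderOf_dvd_natCard _)
    · refine le_of_le_of_eq (IsCyclic.card_pow_eq_one_le Nat.card_pos) ?_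
      rw [← hL, Nat.card_eq_fintype_card, Fintype.card_subtype]
  ext a
  have := Finset.ext_iff.mp ((key H rfl).trans (key K h.symm).symm) a
  simpa using this

/-- The derived subgroup is cyclic, generated by an element of order at least four. -/
theorem derived_generator (S : Sylow 2 G) {N : ℕ} [NeZero N]
    (e : (S : Subgroup G) ≃* QuaternionGroup N) :
    ⁅(S : Subgroup G), (S : Subgroup G)⁆ =
      Subgroup.zpowers (((e.symm (QuaternionGroup.a 2) : (S : Subgroup G)) : G)) ∧
      orderOf (((e.symm (QuaternionGroup.a 2) : (S : Subgroup G)) : G)) = N := by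
  refine ⟨le_antisymm ?_ ?_, ?_⟩
  · rw [Subgroup.commutator_le]
    intro g hg h hh
    have hN2 : (N : ZMod (2 * N)) * 2 = 0 := by
      have h := ZMod.natCast_self (2 * N)
      push_cast at h
      linear_combination h
    have key : ∀ p q : QuaternionGroup N, ∃ j : ZMod (2 * N), ⁅p, q⁆ = QuaternionGroup.a (2 * j) := by
      intro p q
      rcases p with i | i <;> rcases q with j | j <;>
        simp only [commutatorElement_def, mul_inv_rev, qinv_a, qinv_xa, QuaternionGroup.a_mul_a,
          QuaternionGroup.a_mul_xa, QuaternionGroup.xa_mul_a, QuaternionGroup.xa_mul_xa,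
          QuaternionGroup.a.injEq]
      · exact ⟨0, by ring⟩
      · exact ⟨i, by linear_combination hN2⟩
      · exact ⟨-j, by linear_combination hN2⟩
      · exact ⟨j - i, by linear_combination hN2⟩
    obtain ⟨j, hj⟩ := key (e ⟨g, hg⟩) (e ⟨h, hh⟩)
    rw [← map_commutatorElement] at hj
    haveI : NeZero (2 * N) := ⟨Nat.mul_ne_zero two_ne_zero (NeZero.ne N)⟩
    refine ⟨(j.val : ℤ), ?_⟩
    have hp : (QuaternionGroup.a 2 : QuaternionGroup N) ^ j.val = QuaternionGroup.a (2 * j) := by
      rw [show (QuaternionGroup.a 2 : QuaternionGroup N) = QuaternionGroup.a 1 ^ 2 by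
          rw [pow_two, QuaternionGroup.a_mul_a]; congr 1; ring,
        ← pow_mul, QuaternionGroup.a_one_pow]
      push_cast
      rw [ZMod.natCast_zmod_val]
    rw [← hp] at hj
    have := congrArg (fun w => ((e.symm w : (S : Subgroup G)) : G)) hj
    simp only [map_pow, MulEquiv.symm_apply_apply, SubgroupClass.coe_pow] at this
    simp only [zpow_natCast, ← this]
    rfl
  · rw [Subgroup.zpowers_le]
    have h : ⁅(QuaternionGroup.xa 0 : QuaternionGroup N), (QuaternionGroup.a (-1) : QuaternionGroup N)⁆ =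
        QuaternionGroup.a 2 := by
      simp only [commutatorElement_def, qinv_a, qinv_xa, QuaternionGroup.xa_mul_a,
        QuaternionGroup.xa_mul_xa, QuaternionGroup.a_mul_a, QuaternionGroup.a.injEq]
      have hN2 := ZMod.natCast_self (2 * N)
      push_cast at hN2
      linear_combination hN2
    rw [← h, map_commutatorElement]
    exact Subgroup.commutator_mem_commutator (e.symm _).2 (e.symm _).2
  · rw [Subgroup.orderOf_coe, MulEquiv.orderOf_eq,
      show (QuaternionGroup.a 2 : QuaternionGroup N) = QuaternionGroup.a 1 ^ 2 by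
        rw [pow_two, QuaternionGroup.a_mul_a]; congr 1; ring,
      orderOf_pow' _ two_ne_zero, QuaternionGroup.orderOf_a_one,
      Nat.gcd_eq_right (dvd_mul_right 2 _), Nat.mul_div_cancel_left _ two_pos]

/-- The Sylow 2-subgroups of the centraliser are cyclic. -/
theorem centralizer_sylow_cyclic (S : Sylow 2 G) {N : ℕ} [NeZero N] (hN : 4 ∣ N)
    (e : (S : Subgroup G) ≃* QuaternionGroup N) {D : Subgroup G}
    (hD : D = ⁅(S : Subgroup G), (S : Subgroup G)⁆)
    (P : Sylow 2 (Subgroup.centralizer (D : Set G))) :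
    IsCyclic (P : Subgroup (Subgroup.centralizer (D : Set G))) := by
  obtain ⟨hgen, hord⟩ := derived_generator S e
  set d : G := ((e.symm (QuaternionGroup.a 2) : (S : Subgroup G)) : G)
  rw [← hD] at hgen
  have hdD : d ∈ D := hgen ▸ Subgroup.mem_zpowers d
  have hdC : d ∈ Subgroup.centralizer (D : Set G) := fun h hh => by
    rw [SetLike.mem_coe, hgen] at hh
    obtain ⟨i, rfl⟩ := Subgroup.mem_zpowers_iff.mp hh
    exact ((Commute.refl d).zpow_left i).eq
  obtain ⟨s, hs⟩ := hN
  -- `d` is central in the centraliser, so lies in `P`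
  have hdP : (⟨d, hdC⟩ : Subgroup.centralizer (D : Set G)) ∈ (P : Subgroup _) := by
    obtain ⟨j, hj⟩ := IsPGroup.iff_orderOf.mp S.2 (e.symm (QuaternionGroup.a 2))
    haveI hn' : (Subgroup.zpowers (⟨d, hdC⟩ : Subgroup.centralizer (D : Set G))).Normal := by
      refine ⟨fun m hm g => ?_⟩
      obtain ⟨i, rfl⟩ := Subgroup.mem_zpowers_iff.mp hm
      have hc : Commute g ⟨d, hdC⟩ := Subtype.ext ((g.2 d hdD).symm)
      rw [(hc.zpow_right i).eq, mul_inv_cancel_right]
      exact hm
    exact Core.sylow_inf_le P (IsPGroup.of_card (n := j) (by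
      rw [Nat.card_zpowers, ← Subgroup.orderOf_coe]
      change orderOf d = 2 ^ j
      rw [Subgroup.orderOf_coe]
      exact hj)) (Subgroup.mem_zpowers _)
  obtain ⟨R, hR⟩ := (P.2.map (Subgroup.centralizer (D : Set G)).subtype).exists_le_sylow
  set eR : (R : Subgroup G) ≃* QuaternionGroup N := (Sylow.equiv R S).trans e
  let f : (P : Subgroup (Subgroup.centralizer (D : Set G))) →* QuaternionGroup N :=
    eR.toMonoidHom.comp ((Subgroup.inclusion hR).comp
      (MonoidHom.subgroupMap (Subgroup.centralizer (D : Set G)).subtype P))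
  have hf : Function.Injective f := by
    intro a b hab
    have h1 := eR.injective hab
    exact Subtype.ext (Subtype.ext (congrArg (fun z : (R : Subgroup G) => (z : G)) h1))
  have hw : f ⟨_, hdP⟩ * f ⟨_, hdP⟩ ≠ 1 := by
    rw [← map_mul, ← map_one f]
    intro h
    have h2 : d * d = 1 :=
      congrArg (fun z : (P : Subgroup (Subgroup.centralizer (D : Set G))) => ((z : Subgroup.centralizer (D : Set G)) : G)) (hf h)
    have := orderOf_dvd_of_pow_eq_one (x := d) (n := 2) (by rw [pow_two, h2])
    rw [hord, hs] at this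
    have h0 : s ≠ 0 := fun h0 => NeZero.ne N (by rw [hs, h0, mul_zero])
    have := Nat.le_of_dvd two_pos this
    omega
  obtain ⟨g, hg⟩ := quaternion_centralizer_cyclic _ hw
  have hrange : f.range ≤ Subgroup.zpowers g := by
    rintro _ ⟨q, rfl⟩
    refine hg _ ?_
    rw [← map_mul, ← map_mul]
    exact congrArg f (Subtype.ext (Subtype.ext ((q.1.2 d hdD))))
  haveI : IsCyclic f.range := Subgroup.isCyclic_of_le hrange
  exact (MonoidHom.ofInjective hf).isCyclic.mpr inferInstance

/-- Elements of the centraliser of order divisible by `|D|` have `D` among their powers. -/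
theorem derived_le_zpowers (S : Sylow 2 G) {m : ℕ}
    (e : (S : Subgroup G) ≃* QuaternionGroup (2 ^ (m + 2))) {D : Subgroup G}
    (hD : D = ⁅(S : Subgroup G), (S : Subgroup G)⁆) {y : G}
    (hy : y ∈ Subgroup.centralizer (D : Set G)) (hdvd : Nat.card D ∣ orderOf y) :
    D ≤ Subgroup.zpowers y := by
  haveI : NeZero (2 ^ (m + 2)) := ⟨pow_ne_zero _ two_ne_zero⟩
  haveI : Fact (Nat.Prime 2) := ⟨Nat.prime_two⟩
  obtain ⟨hgen, hord⟩ := derived_generator S e
  rw [← hD] at hgen
  have hcard : Nat.card D = 2 ^ (m + 2) := by rw [hgen, Nat.card_zpowers, hord]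
  rw [hcard] at hdvd
  set w := y ^ (orderOf y / 2 ^ (m + 2))
  have hw : orderOf w = 2 ^ (m + 2) := by
    rw [orderOf_pow' y (Nat.div_pos (Nat.le_of_dvd (orderOf_pos y) hdvd) (pow_pos two_pos _)).ne',
      Nat.gcd_eq_right (Nat.div_dvd_of_dvd hdvd), Nat.div_div_self hdvd (orderOf_pos y).ne']
  have hwC : w ∈ Subgroup.centralizer (D : Set G) := pow_mem hy _
  have hDC : D ≤ Subgroup.centralizer (D : Set G) := fun h hh k hk => by
    rw [SetLike.mem_coe, hgen] at hk
    rw [hgen] at hh
    obtain ⟨i, rfl⟩ := Subgroup.mem_zpowers_iff.mp hh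
    obtain ⟨j, rfl⟩ := Subgroup.mem_zpowers_iff.mp hk
    exact (((Commute.refl _).zpow_left j).zpow_right i).eq
  set wC : Subgroup.centralizer (D : Set G) := ⟨w, hwC⟩
  set Dc := D.subgroupOf (Subgroup.centralizer (D : Set G))
  haveI : Dc.Normal := ⟨fun n hn g => by
    rw [Subgroup.mem_subgroupOf] at hn ⊢
    simp only [Subgroup.coe_mul, InvMemClass.coe_inv]
    rw [← g.2 (n : G) hn, mul_inv_cancel_right]
    exact hn⟩
  have hDp : IsPGroup 2 Dc := IsPGroup.of_card (n := m + 2) (by
    rw [Nat.card_congr (Subgroup.subgroupOfEquivOfLe hDC).toEquiv, hcard])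
  have hwp : IsPGroup 2 (Subgroup.zpowers wC) := IsPGroup.of_card (n := m + 2) (by
    rw [Nat.card_zpowers, ← Subgroup.orderOf_coe]; exact hw)
  obtain ⟨P, hP⟩ := hwp.exists_le_sylow
  have hDP : Dc ≤ (P : Subgroup (Subgroup.centralizer (D : Set G))) := Core.sylow_inf_le P hDp
  have hN4 : 4 ∣ 2 ^ (m + 2) := ⟨2 ^ m, by ring⟩
  haveI := centralizer_sylow_cyclic S hN4 e hD P
  have heq : Dc.subgroupOf (P : Subgroup _) = (Subgroup.zpowers wC).subgroupOf (P : Subgroup _) := by
    refine cyclic_subgroup_eq ?_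
    rw [Nat.card_congr (Subgroup.subgroupOfEquivOfLe hDP).toEquiv,
      Nat.card_congr (Subgroup.subgroupOfEquivOfLe hP).toEquiv, Nat.card_zpowers,
      Nat.card_congr (Subgroup.subgroupOfEquivOfLe hDC).toEquiv, hcard, ← Subgroup.orderOf_coe]
    exact hw.symm
  intro h hh
  have h1 : (⟨h, hDC hh⟩ : Subgroup.centralizer (D : Set G)) ∈ Dc := hh
  have h2 : (⟨_, hDP h1⟩ : (P : Subgroup (Subgroup.centralizer (D : Set G)))) ∈
      (Subgroup.zpowers wC).subgroupOf (P : Subgroup _) := by
    rw [← heq]
    exact h1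
  rw [Subgroup.mem_subgroupOf] at h2
  obtain ⟨i, hi⟩ := Subgroup.mem_zpowers_iff.mp h2
  have h3 : w ^ i = h := by simpa [wC] using congrArg Subtype.val hi
  rw [← h3]
  exact zpow_mem (pow_mem (Subgroup.mem_zpowers y) _) i

end CfsgLib.ZStar
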