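import Cfsg.Agent.Lib.ZStar.Main

/-!
Groups with a quaternion Sylow subgroup: the involution is isolated.
-/

namespace CfsgLib.ZStar

open Cfsg

universe u

variable {G : Type u} [Group G] [Finite G]

theorem quaternion_unique_involution (S : Sylow 2 G) {N : ℕ} [NeZero N]
    (e : (S : Subgroup G) ≃* QuaternionGroup N) :
    ∃ t : (S : Subgroup G), orderOf t = 2 ∧ e t = QuaternionGroup.a (N : ZMod (2 * N)) ∧
      (∀ s : (S : Subgroup G), orderOf s = 2 → s = t) ∧ IsIsolatedInvolution (t : G) := by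
  haveI : Fact (Nat.Prime 2) := ⟨Nat.prime_two⟩
  obtain ⟨x, hx⟩ := exists_prime_orderOf_dvd_card' (G := (S : Subgroup G)) 2 (by
    rw [Nat.card_congr e.toEquiv, Nat.card_eq_fintype_card, QuaternionGroup.card]
    exact dvd_mul_of_dvd_left (by norm_num) _)
  have key : ∀ s : (S : Subgroup G), orderOf s = 2 →
      e s = QuaternionGroup.a (N : ZMod (2 * N)) := by
    intro s hs
    refine (UniqueOrderP.quaternion_eq_of_sq (e s) (orderOf_dvd_iff_pow_eq_one.mp (by
      rw [MulEquiv.orderOf_eq, hs]))).resolve_left fun h => ?_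
    have h' := (MulEquiv.orderOf_eq e s).symm.trans (congrArg orderOf h)
    rw [hs, orderOf_one] at h'
    norm_num at h'
  have huq : ∀ s : (S : Subgroup G), orderOf s = 2 → s = x := fun s hs =>
    e.injective ((key s hs).trans (key x hx).symm)
  refine ⟨x, hx, key x hx, huq, Isolated.isIsolated_of_sylow (S := S)
    (by rw [Subgroup.orderOf_coe]; exact hx) fun g hg => ?_⟩
  have ho : orderOf (g * (x : G) * g⁻¹) = 2 :=
    Involution.orderOf_conj' (by rw [Subgroup.orderOf_coe]; exact hx)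
  exact congrArg Subtype.val (huq ⟨_, hg⟩ (by rw [← Subgroup.orderOf_coe]; exact ho))

/-- The subgroup generated by the odd core and the isolated involution. -/
theorem sup_zpowers_normal {t : G} (ht : IsIsolatedInvolution t) :
    (oddCore G ⊔ Subgroup.zpowers t).Normal ∧
      Nat.card (oddCore G ⊔ Subgroup.zpowers t : Subgroup G) ∣ Nat.card (oddCore G) * 2 ∧
      Even (Nat.card (oddCore G ⊔ Subgroup.zpowers t : Subgroup G)) ∧
      ∀ g : G, g * t * g⁻¹ ∈ oddCore G ⊔ Subgroup.zpowers t := by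
  haveI := oddCore_normal (G := G)
  have hconj : ∀ g : G, g * t * g⁻¹ ∈ oddCore G ⊔ Subgroup.zpowers t := fun g => by
    have h1 := zstar ht g
    rw [show g * t * g⁻¹ = (t * g * t⁻¹ * g⁻¹)⁻¹ * t by group]
    exact mul_mem (inv_mem (Subgroup.mem_sup_left h1))
      (Subgroup.mem_sup_right (Subgroup.mem_zpowers t))
  refine ⟨⟨fun n hn g => ?_⟩, ?_, ?_, hconj⟩
  · rw [← SetLike.mem_coe, Subgroup.normal_mul] at hn
    obtain ⟨d, hd, s, hs, rfl⟩ := hn
    simp only
    rw [show g * (d * s) * g⁻¹ = (g * d * g⁻¹) * (g * s * g⁻¹) by group]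
    refine mul_mem (Subgroup.mem_sup_left (Subgroup.Normal.conj_mem inferInstance d hd g)) ?_
    obtain ⟨i, rfl⟩ := Subgroup.mem_zpowers_iff.mp hs
    rw [← conj_zpow]
    exact zpow_mem (hconj g) i
  · have h := Core.card_sup_dvd_of_normal (Subgroup.zpowers t) (oddCore G)
    rw [sup_comm, Nat.card_zpowers, ht.1, mul_comm] at h
    exact h
  · rw [even_iff_two_dvd]
    have := Subgroup.card_dvd_of_le (le_sup_right : Subgroup.zpowers t ≤ oddCore G ⊔ Subgroup.zpowers t)
    rwa [Nat.card_zpowers, ht.1] at this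

theorem not_four_dvd_of_mem {t : G} (ht : IsIsolatedInvolution t) {x : G}
    (hx : x ∈ oddCore G ⊔ Subgroup.zpowers t) : ¬ 4 ∣ orderOf x := by
  intro h4
  have h1 : orderOf x ∣ Nat.card (oddCore G ⊔ Subgroup.zpowers t : Subgroup G) := by
    rw [← Subgroup.orderOf_mk x hx]; exact orderOf_dvd_natCard _
  have h2 : 2 * 2 ∣ Nat.card (oddCore G) * 2 := h4.trans (h1.trans (sup_zpowers_normal ht).2.1)
  have h3 := (Nat.mul_dvd_mul_iff_right two_pos).mp h2
  exact (Nat.not_even_iff_odd.mpr oddCore_odd) (even_iff_two_dvd.mpr h3)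

end CfsgLib.ZStar
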