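import Cfsg.Agent.Lib.ZStar.Q8Inner
import Cfsg.Agent.Lib.ZStar.Quaternion
import Cfsg.Agent.Lib.ZStar.TIInduce

/-!
The number of irreducible characters in the principal block of a group with quaternion Sylow
subgroup of order eight and central involution.
-/

namespace CfsgLib.Q8Count

open scoped ComplexConjugate
open Cfsg CfsgLib.Chars CfsgLib.Blocks CfsgLib.ZStar

universe u

variable {C : Type u} [Group C] [Fintype C] {t : C} {M : Ideal AlgInt}

theorem transport {D : Type u} [Group D] [Fintype D] (φ : C ≃* D) (h : Q8Setting t) :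
    Q8Setting (φ t) := by
  refine ⟨?_, ?_, ?_, ?_, ?_, ?_, ?_, ?_⟩
  · rw [Subgroup.mem_center_iff]
    intro g
    have := congrArg φ (Subgroup.mem_center_iff.mp h.central (φ.symm g))
    simpa using this
  · rw [MulEquiv.orderOf_eq, h.ord]
  · intro v hv
    have := h.uniq (φ.symm v) (by rw [MulEquiv.orderOf_eq, hv])
    rw [← this, MulEquiv.apply_symm_apply]
  · intro c
    have := h.no8 (φ.symm c)
    rwa [MulEquiv.orderOf_eq] at this
  · intro a b ha hb
    have := h.conj4 (φ.symm a) (φ.symm b) (by rw [MulEquiv.orderOf_eq, ha])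
      (by rw [MulEquiv.orderOf_eq, hb])
    simpa using φ.toMonoidHom.map_isConj this
  · intro y hy hd
    refine h.cent4 (φ.symm y) (by rw [MulEquiv.orderOf_eq, hy]) ?_
    have e : (Subgroup.centralizer ({φ.symm y} : Set C)).map φ.toMonoidHom =
        Subgroup.centralizer ({y} : Set D) := by
      ext d
      simp only [Subgroup.mem_map, Subgroup.mem_centralizer_singleton_iff, MulEquiv.coe_toMonoidHom]
      constructor
      · rintro ⟨c, hc, rfl⟩
        simpa using congrArg φ hc
      · intro hd
        exact ⟨φ.symm d, by simpa using congrArg φ.symm hd, by simp⟩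
    rwa [← e, Subgroup.card_map_of_injective φ.injective] at hd
  · rw [← h.sylow, Nat.card_congr φ.toEquiv]
  · obtain ⟨y, hy⟩ := h.has4
    exact ⟨φ y, by rw [MulEquiv.orderOf_eq, hy]⟩

theorem card_principalBlock (h : Q8Setting t) (hM : IsPModular 2 M) :
    Nat.card (principalBlock M C) = 7 := by
  classical
  obtain ⟨y, hy⟩ := h.has4
  obtain ⟨ξ, ε, hinj, hξ, hall⟩ := h.exists_four hM hy
  obtain ⟨D⟩ := h.exists_q8Data hM
  set B := principalBlock M C
  have hB : IsPBlock M B := isPBlock_principalBlock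
  have htr : trivIrr C ∈ B := by
    simp only [B]; rw [principalBlock_eq]; exact self_mem_blockOf hM (trivIrr C)
  have hcl : ∀ ψ : IrrCharacter C, IsClassFunction C (ψ : C → ℂ) := fun ψ =>
    IsCharacter.isClassFunction (isCharacter_irr ψ)
  -- the characters with `t` in the kernel
  have hneg : ∀ ψ : IrrCharacter C, (ψ : C → ℂ) t = -(ψ : C → ℂ) 1 →
      (ψ : C → ℂ) t ≠ (ψ : C → ℂ) 1 := fun ψ hp e =>
    irr_one_ne_zero ψ (by linear_combination (hp.symm.trans e).symm / 2)
  set P := Finset.univ.filter (fun ψ : IrrCharacter C =>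
    ψ ∈ B ∧ (ψ : C → ℂ) t = (ψ : C → ℂ) 1)
  have hPcard : P.card = 4 := by
    have hP : P = insert (trivIrr C) (Finset.univ.image ξ) := by
      ext ψ
      simp only [P, Finset.mem_filter, Finset.mem_univ, true_and, Finset.mem_insert,
        Finset.mem_image]
      constructor
      · rintro ⟨h1, h2⟩
        by_cases hne : ψ = trivIrr C
        · exact Or.inl hne
        · obtain ⟨k, hk⟩ := hall ψ h1 h2 hne
          exact Or.inr ⟨k, hk.symm⟩
      · rintro (rfl | ⟨k, rfl⟩)
        · exact ⟨htr, rfl⟩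
        · refine ⟨(hξ k).2.1, h.pos_of_ne_zero hy ?_⟩
          rw [(hξ k).2.2.2]
          intro h0
          have := (hξ k).1
          rw [Int.cast_eq_zero] at h0
          rw [h0] at this
          norm_num at this
    rw [hP, Finset.card_insert_of_notMem (by
      simp only [Finset.mem_image, Finset.mem_univ, true_and, not_exists]
      exact fun k => (hξ k).2.2.1), Finset.card_image_of_injective _ hinj]
    simp
  -- the other characters
  set w : Fin 3 → C → ℂ := fun i c => 1 + (D.ε i : ℂ) * (D.ξ i : C → ℂ) c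
  set F : Fin 3 → C → ℂ := fun i => twistFun t (w i) with hF
  choose n hn using fun i ψ => D.int_twist i ψ
  have hF4 : ∀ i c, 4 ∣ orderOf c → F i c = 0 := fun i c hc => by
    simp only [hF, twistFun]; rw [if_pos hc]
  have hFreg : ∀ i s, ¬ 2 ∣ orderOf s → F i s = w i s := fun i s hs => by
    simp only [hF, twistFun]
    rw [if_neg fun h4 => hs ((by norm_num : 2 ∣ 4).trans h4), if_neg hs]
  have hFt : ∀ i s, ¬ 2 ∣ orderOf s → F i (t * s) = -w i s := fun i s hs => by
    simp only [hF, twistFun]
    rw [if_neg (h.singular_t_mul hs).2, if_pos (h.singular_t_mul hs).1, ← mul_assoc,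
      h.t_mul_self, one_mul]
  have hsec : ∀ ψ ∈ B, ∀ c, 4 ∣ orderOf c → (ψ : C → ℂ) c = (ψ : C → ℂ) y := fun ψ hψ c hc =>
    h.irr_section hM hy hψ hc
  have hFψ : ∀ i (ψ : IrrCharacter C), ψ ∈ B → classInner (F i) (ψ : C → ℂ) =
      if (ψ : C → ℂ) t = (ψ : C → ℂ) 1 then 0 else halfInner (w i) (ψ : C → ℂ) := by
    intro i ψ hψ
    rw [h.classInner_three (hF4 i) (hsec ψ hψ)]
    rw [halfInner_congr (g := w i) (g' := (ψ : C → ℂ)) (hFreg i) (fun _ _ => rfl)]
    rcases (h.irr_t ψ).1 with hp | hp
    · rw [if_pos hp, halfInner_congr (f := fun s => F i (t * s)) (g := fun s => (-1 : ℂ) * w i s)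
        (g' := (ψ : C → ℂ)) (fun s hs => by rw [hFt i s hs, neg_one_mul])
        (fun s _ => h.irr_t_mul_pos hp s), halfInner_mul_left]
      ring
    · rw [if_neg (hneg ψ hp),
        halfInner_congr (f := fun s => F i (t * s)) (g := fun s => (-1 : ℂ) * w i s)
        (g' := fun s => (0 : ℂ) + (-1) * (ψ : C → ℂ) s)
        (fun s hs => by rw [hFt i s hs, neg_one_mul])
        (fun s _ => by rw [h.irr_t_mul_neg hp s]; ring), halfInner_mul_left, halfInner_add_mul_right]
      have h0 : halfInner (w i) (fun _ : C => (0 : ℂ)) = 0 := by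
        simp [Q8Setting.halfInner_eq_regSum, regSum]
      rw [h0, map_neg, map_one]
      ring
  have hout : ∀ i (ψ : IrrCharacter C), ψ ∉ B → classInner (F i) (ψ : C → ℂ) = 0 := by
    intro i ψ hψ
    have hz : ∀ φ : IrrCharacter C, φ ∈ B → halfInner (φ : C → ℂ) (ψ : C → ℂ) = 0 := fun φ hφ => by
      rw [halfInner, regInner_eq_zero hM fun hs => hψ (IsPBlock.mem_of_sameBlock hM hB hφ hs),
        mul_zero]
    have hw : halfInner (w i) (ψ : C → ℂ) = 0 := by
      rw [show w i = fun c => (trivIrr C : C → ℂ) c + (D.ε i : ℂ) * (D.ξ i : C → ℂ) c from rfl,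
        halfInner_add_mul_left, hz _ htr, hz _ (D.mem_ξ i)]
      ring
    have e1 : classInner (F i) (ψ : C → ℂ) = (Nat.card C : ℂ)⁻¹ *
        (regSum 2 (fun s => w i s * conj ((ψ : C → ℂ) s)) +
          regSum 2 (fun s => -w i s * conj ((ψ : C → ℂ) (t * s)))) := by
      rw [classInner, h.sum_split, Finset.sum_eq_zero fun c hc => by
        rw [hF4 i c (Finset.mem_filter.mp hc).2, zero_mul], add_zero]
      congr 2
      · rw [regSum, regSum]
        refine Finset.sum_congr rfl fun c hc => ?_
        rw [hFreg i c (Finset.mem_filter.mp hc).2]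
      · rw [regSum, regSum]
        refine Finset.sum_congr rfl fun c hc => ?_
        rw [hFt i c (Finset.mem_filter.mp hc).2]
    rw [Q8Setting.halfInner_eq_regSum, mul_eq_zero] at hw
    have hw' := hw.resolve_left (mul_ne_zero two_ne_zero (inv_ne_zero (natCast_card_ne_zero C)))
    rw [e1]
    simp only [regSum] at hw' ⊢
    rcases (h.irr_t ψ).1 with hp | hp
    · simp only [h.irr_t_mul_pos hp, neg_mul, Finset.sum_neg_distrib, hw']
      simp
    · simp only [h.irr_t_mul_neg hp, map_neg, neg_mul_neg, hw']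
      simp
  set N := Finset.univ.filter (fun ψ : IrrCharacter C =>
    ψ ∈ B ∧ ¬ (ψ : C → ℂ) t = (ψ : C → ℂ) 1)
  have hnN : ∀ i ψ, ψ ∈ N → halfInner (w i) (ψ : C → ℂ) = (n i ψ : ℂ) := by
    intro i ψ hψ
    obtain ⟨hψB, hψt⟩ := (Finset.mem_filter.mp hψ).2
    have h1 := hFψ i ψ hψB
    rw [if_neg hψt] at h1
    rw [← h1]
    exact hn i ψ
  have hn0 : ∀ i ψ, ψ ∉ N → n i ψ = 0 := by
    intro i ψ hψ
    have h1 : classInner (F i) (ψ : C → ℂ) = 0 := by
      by_cases hψB : ψ ∈ B
      · rw [hFψ i ψ hψB, if_pos]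
        by_contra hc
        exact hψ (Finset.mem_filter.mpr ⟨Finset.mem_univ _, hψB, hc⟩)
      · exact hout i ψ hψB
    have := hn i ψ
    simp only [hF] at h1
    rw [h1] at this
    exact_mod_cast this.symm
  have hcol : ∀ i, ∑ ψ ∈ N, n i ψ ^ 2 = 1 := by
    intro i
    have hFc : IsClassFunction C (F i) := by
      intro x g
      have e : ∀ z : C, orderOf (g * z * g⁻¹) = orderOf z := fun z =>
        orderOf_injective (MulAut.conj g).toMonoidHom (MulEquiv.injective _) z
      have hwc : ∀ z, w i (g * z * g⁻¹) = w i z := fun z => by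
        simp only [w]
        rw [hcl (D.ξ i) z g]
      simp only [hF, twistFun]
      rw [e x]
      split_ifs
      · rfl
      · rw [show t * (g * x * g⁻¹) = g * (t * x) * g⁻¹ by
          rw [← mul_assoc, ← mul_assoc, (h.t_mul_comm g).eq, mul_assoc g t x], hwc]
      · exact hwc x
    have h1 : classInner (F i) (F i) = 1 := by
      rw [h.classInner_three (hF4 i) (hF4 i),
        halfInner_congr (g := w i) (g' := w i) (hFreg i) (hFreg i),
        halfInner_congr (f := fun s => F i (t * s)) (f' := fun s => F i (t * s))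
          (g := fun s => (-1 : ℂ) * w i s) (g' := fun s => (-1 : ℂ) * w i s)
          (fun s hs => by rw [hFt i s hs, neg_one_mul]) (fun s hs => by rw [hFt i s hs, neg_one_mul]),
        halfInner_mul_left, ← halfInner_conj (w i) (fun s => (-1 : ℂ) * w i s), halfInner_mul_left,
        map_mul, halfInner_conj]
      have := D.ortho i i
      rw [if_pos rfl] at this
      rw [show halfInner (w i) (w i) = 1 from this]
      simp
    rw [classInner_eq_coeff hFc] at h1
    have h2 : ∀ χ : IrrCharacter C, classInner (F i) (χ : C → ℂ) *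
        conj (classInner (F i) (χ : C → ℂ)) = ((n i χ ^ 2 : ℤ) : ℂ) := fun χ => by
      rw [show classInner (F i) (χ : C → ℂ) = (n i χ : ℂ) from hn i χ, map_intCast]
      push_cast; ring
    rw [Finset.sum_congr rfl fun χ _ => h2 χ, ← Int.cast_sum] at h1
    rw [← show ((1 : ℤ) : ℂ) = 1 by norm_num, Int.cast_inj] at h1
    rw [← h1]
    exact Finset.sum_subset (Finset.subset_univ _) fun ψ _ hψ => by rw [hn0 i ψ hψ]; ring
  have hrow : ∀ ψ ∈ N, ∑ i, n i ψ ^ 2 = 1 := by
    intro ψ hψ
    obtain ⟨hψB, hψt⟩ := (Finset.mem_filter.mp hψ).2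
    have hp := (h.irr_t ψ).1.resolve_left hψt
    have hself : halfInner (ψ : C → ℂ) (ψ : C → ℂ) = 1 := by
      have := h.classInner_three (f := (ψ : C → ℂ)) (f' := (ψ : C → ℂ)) (a := 0) (b := 0)
        (fun c hc => (hsec ψ hψB c hc).trans (h.irr_four_neg hy hp))
        (fun c hc => (hsec ψ hψB c hc).trans (h.irr_four_neg hy hp))
      rw [classInner_irr, if_pos rfl] at this
      rw [halfInner_congr (f := fun s => (ψ : C → ℂ) (t * s)) (f' := fun s => (ψ : C → ℂ) (t * s))
        (g := fun s => (-1 : ℂ) * (ψ : C → ℂ) s) (g' := fun s => (-1 : ℂ) * (ψ : C → ℂ) s)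
        (fun s _ => by rw [h.irr_t_mul_neg hp s, neg_one_mul])
        (fun s _ => by rw [h.irr_t_mul_neg hp s, neg_one_mul]), halfInner_mul_left,
        ← halfInner_conj (ψ : C → ℂ) (fun s => (-1 : ℂ) * (ψ : C → ℂ) s), halfInner_mul_left,
        map_mul, halfInner_conj] at this
      simp only [map_neg, map_one, map_zero, mul_zero, zero_div, add_zero] at this
      linear_combination -this
    have hwψ : ∀ j, halfInner (ψ : C → ℂ) (w j) = (n j ψ : ℂ) := fun j => by
      rw [← halfInner_conj (ψ : C → ℂ) (w j), hnN j ψ hψ, map_intCast]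
    set d : C → ℂ := fun c => (ψ : C → ℂ) c + (-1) * ∑ i, (n i ψ : ℂ) * w i c with hd
    have hdw : ∀ j, halfInner d (w j) = 0 := by
      intro j
      rw [hd, halfInner_add_mul_left, hwψ, halfInner_sum_left]
      rw [Finset.sum_congr rfl fun i _ => by
        rw [halfInner_mul_left, show halfInner (w i) (w j) = _ from D.ortho i j]]
      simp
    have hd1 : halfInner d (fun _ => 1) = 0 := by
      have e : ∀ s, ¬ 2 ∣ orderOf s →
          (fun _ : C => (1 : ℂ)) s = (1 / 2 : ℂ) * ∑ i, w i s := fun s hs => by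
        have := D.rel s hs
        simp only [w, Finset.sum_add_distrib, Finset.sum_const, Finset.card_univ, Fintype.card_fin,
          nsmul_eq_mul, mul_one]
        push_cast
        linear_combination -this / 2
      rw [halfInner_congr (f := d) (g := d) (fun _ _ => rfl) e,
        ← halfInner_conj d, halfInner_mul_left, halfInner_sum_left, map_mul, map_sum]
      simp [halfInner_conj, hdw]
    have hdξ : ∀ k, halfInner d (D.ξ k : C → ℂ) = 0 := by
      intro k
      have := hdw k
      rw [show w k = fun c => (1 : ℂ) + (D.ε k : ℂ) * (D.ξ k : C → ℂ) c from rfl,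
        halfInner_add_mul_right, hd1, map_intCast, zero_add, mul_eq_zero] at this
      refine this.resolve_left fun h0 => ?_
      have h2 := D.sq_ε k
      rw [Int.cast_eq_zero] at h0
      rw [h0] at h2
      norm_num at h2
    have h0 := D.kernel d hd1 hdξ ψ hψB
    rw [hd, halfInner_add_mul_left, hself, halfInner_sum_left,
      Finset.sum_congr rfl fun i _ => by rw [halfInner_mul_left, hnN i ψ hψ]] at h0
    have : ((∑ i, n i ψ ^ 2 : ℤ) : ℂ) = ((1 : ℤ) : ℂ) := by
      push_cast
      simp only [pow_two]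
      linear_combination -h0
    exact_mod_cast this
  have hNcard : N.card = 3 := by
    have h1 : ∑ ψ ∈ N, ∑ i, n i ψ ^ 2 = (N.card : ℤ) := by
      rw [Finset.sum_congr rfl hrow]; simp
    rw [Finset.sum_comm, Finset.sum_congr rfl fun i _ => hcol i] at h1
    simp at h1
    omega
  have hu : Finset.univ.filter (fun ψ : IrrCharacter C => ψ ∈ B) = P ∪ N := by
    ext ψ
    simp only [P, N, Finset.mem_filter, Finset.mem_univ, true_and, Finset.mem_union]
    tauto
  rw [Nat.card_eq_fintype_card, Fintype.card_subtype, hu, Finset.card_union_of_disjoint (by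
    rw [Finset.disjoint_left]
    intro ψ h1 h2
    exact (Finset.mem_filter.mp h2).2.2 (Finset.mem_filter.mp h1).2.2), hPcard, hNcard]

/-- The principal two-block of a group with quaternion Sylow subgroup of order eight. -/
theorem card_principalBlock_Q8 {G : Type u} [Group G] [Finite G] (hM : IsPModular 2 M)
    (S : Sylow 2 G) (e : (S : Subgroup G) ≃* QuaternionGroup 2)
    (hO : ∀ N : Subgroup G, N.Normal → Odd (Nat.card N) → N = ⊥)
    (hno : ∀ H : Subgroup G, H.index ≠ 2) :
    Nat.card (principalBlock M G) = 7 := by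
  classical
  haveI := Fintype.ofFinite G
  obtain ⟨t, ht2, -, huq, hiso⟩ := quaternion_unique_involution S e
  have hcore : oddCore G = ⊥ := hO _ oddCore_normal oddCore_odd
  have hz : ∀ g : G, (t : G) * g * (t : G)⁻¹ * g⁻¹ = 1 := fun g => by
    have := zstar hiso g
    rwa [hcore, Subgroup.mem_bot] at this
  have hc : (t : G) ∈ Subgroup.center G := center_of_no_odd hiso hz
  haveI : Fact (Nat.Prime 2) := ⟨Nat.prime_two⟩
  have huniq : ∀ v : G, orderOf v = 2 → v = t := by
    intro v hv
    obtain ⟨R, hR⟩ := (IsPGroup.of_card (p := 2) (n := 1) (G := Subgroup.zpowers v)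
      (by rw [Nat.card_zpowers, hv, pow_one])).exists_le_sylow
    obtain ⟨g, hg⟩ := MulAction.exists_smul_eq G R S
    have hmem : g * v * g⁻¹ ∈ (S : Subgroup G) := by
      rw [← hg]; exact Subgroup.smul_mem_pointwise_smul _ _ _ (hR (Subgroup.mem_zpowers v))
    have h1 : g * v * g⁻¹ = t := congrArg Subtype.val (huq ⟨_, hmem⟩ (by
      rw [← Subgroup.orderOf_coe]
      change orderOf (g * v * g⁻¹) = 2
      rw [Involution.orderOf_conj' hv]))
    have h2 := Subgroup.mem_center_iff.mp hc g
    rw [← h1] at h2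
    calc v = g⁻¹ * (g * v * g⁻¹) * g := by group
      _ = t := by rw [h1, mul_assoc, ← Subgroup.mem_center_iff.mp hc g, inv_mul_cancel_left]
  have hs := q8Setting_centralizer S e (t := (t : G)) (by rw [Subgroup.orderOf_coe]; exact ht2)
    t.2 (fun v hv _ => huniq v hv) hno
  have htop : Subgroup.centralizer ({(t : G)} : Set G) = ⊤ := by
    rw [eq_top_iff]
    intro g _
    rw [Subgroup.mem_centralizer_singleton_iff]
    exact Subgroup.mem_center_iff.mp hc g
  exact card_principalBlock (transport ((MulEquiv.subgroupCongr htop).trans Subgroup.topEquiv) hs) hM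

end CfsgLib.Q8Count
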